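import Cfsg.Agent.H218.TE.RoAbs
import Cfsg.Agent.H218.TE.LCj
import Cfsg.Agent.H802.TE.Ro

/-!
# S5261, (Ro): `R = U1 U3 U2 U4` is not essential, `p` odd, from S3083 (`StSQ`)
-/

set_option autoImplicit false

namespace Cfsg.Agent.H218.TE

universe u

theorem stRoAbs (hSQ : StSQ.{u}) : Cfsg.Agent.H802.TE.StRoAbs.{u} := by
  intro G _ _ p _ V _ _ _ ρ T X Z M
  exact roAbs_of hSQ ρ T X Z M

/-- (Ro) -/
theorem stRo (hSQ : StSQ.{u}) : Cfsg.Agent.H802.TE.StRo.{u} :=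
  Cfsg.Agent.H802.TE.stRo_of stPhi (stRoAbs hSQ)

end Cfsg.Agent.H218.TE
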